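import Mathlib

/-! Ladder UC, shared core of Q2T / Q2B: a non-degenerate unitary form on a plane over `F₄` has an
orthonormal basis `v, w`, and its non-isotropic vectors are those of `F v ∪ F w`. -/

set_option autoImplicit false

namespace Cfsg.Agent.Lib.Helper71.UCQ2

variable {F : Type*} [Field F] [Fintype F]

theorem f4_two (hF : Fintype.card F = 2 ^ 2) : (2 : F) = 0 := by
  have h4 : ((Fintype.card F : ℕ) : F) = 0 := Nat.cast_card_eq_zero F
  rw [hF] at h4
  have h5 : (2 : F) ^ 2 = 0 := by
    have : (((2 ^ 2 : ℕ)) : F) = (2 : F) ^ 2 := by push_cast; ring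
    rw [← this]; exact h4
  exact pow_eq_zero_iff (two_ne_zero) |>.1 h5

theorem f4_add_self (hF : Fintype.card F = 2 ^ 2) (a : F) : a + a = 0 := by
  have := f4_two hF
  linear_combination a * this

theorem f4_add_sq (hF : Fintype.card F = 2 ^ 2) (a b : F) : (a + b) ^ 2 = a ^ 2 + b ^ 2 := by
  have := f4_two hF
  linear_combination (a * b) * this

theorem f4_cube (hF : Fintype.card F = 2 ^ 2) {a : F} (ha : a ≠ 0) : a ^ 3 = 1 := by
  have := FiniteField.pow_card_sub_one_eq_one a ha
  rw [hF] at this
  simpa using this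

theorem f4_exists (hF : Fintype.card F = 2 ^ 2) : ∃ a : F, a ≠ 0 ∧ a ≠ 1 := by
  classical
  by_contra hcon
  push Not at hcon
  have hsub : (Finset.univ : Finset F) ⊆ {0, 1} := by
    intro a _
    by_cases ha : a = 0
    · simp [ha]
    · simp [hcon a ha]
  have := Finset.card_le_card hsub
  rw [Finset.card_univ, hF] at this
  have h2 : ({0, 1} : Finset F).card ≤ 2 := Finset.card_le_two
  omega

variable {V : Type*} [AddCommGroup V] [Module F V]

/-- the shared core. -/
theorem core (hF : Fintype.card F = 2 ^ 2) (hV : Module.finrank F V = 2) (f : V → V → F)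
    (hadd : ∀ x y v, f (x + y) v = f x v + f y v) (hsmul : ∀ (c : F) x v, f (c • x) v = c * f x v)
    (hherm : ∀ v w, f v w = (f w v) ^ 2) (hnd : ∀ v, v ≠ 0 → ∃ x, f x v ≠ 0) :
    ∃ v w : V, f v v = 1 ∧ f w w = 1 ∧ f v w = 0 ∧ f w v = 0 ∧ (∀ x, ∃ a b : F, x = a • v + b • w) ∧
      ∀ u, f u u ≠ 0 → (∃ a : F, u = a • v) ∨ (∃ a : F, u = a • w) := by
  have hadd' : ∀ v x y, f v (x + y) = f v x + f v y := by
    intro v x y
    rw [hherm v (x + y), hadd, f4_add_sq hF, ← hherm, ← hherm]
  have hsmul' : ∀ (c : F) v x, f v (c • x) = c ^ 2 * f v x := by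
    intro c v x
    rw [hherm v (c • x), hsmul, mul_pow, ← hherm]
  have h01 : ∀ x, f x x = 0 ∨ f x x = 1 := by
    intro x
    have h := hherm x x
    have h2 : f x x * (f x x - 1) = 0 := by linear_combination -h
    rcases mul_eq_zero.1 h2 with h3 | h3
    · exact Or.inl h3
    · exact Or.inr (by linear_combination h3)
  have : Module.Finite F V := Module.finite_of_finrank_pos (by omega)
  have : Nontrivial V := Module.nontrivial_of_finrank_pos (R := F) (by omega)
  -- a non-isotropic vector
  obtain ⟨v, hv⟩ : ∃ v, f v v ≠ 0 := by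
    by_contra hcon
    push Not at hcon
    obtain ⟨z, hz⟩ := exists_ne (0 : V)
    obtain ⟨x, hx⟩ := hnd z hz
    have key : ∀ x y, f x y + (f x y) ^ 2 = 0 := by
      intro x y
      have h := hcon (x + y)
      rw [hadd, hadd', hadd', hcon x, hcon y, hherm y x] at h
      linear_combination h
    obtain ⟨a, ha0, ha1⟩ := f4_exists hF
    have h1 := key x z
    have h2 := key (a • x) z
    rw [hsmul] at h2
    have h3 : f x z * (1 + f x z) = 0 := by linear_combination h1
    have h4 : 1 + f x z = 0 := (mul_eq_zero.1 h3).resolve_left hx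
    have h5 : f x z = 1 := by
      have := f4_add_self hF (1 : F)
      linear_combination h4 - this
    rw [h5] at h2
    have h6 : a * (1 + a) = 0 := by linear_combination h2
    have h7 : 1 + a = 0 := (mul_eq_zero.1 h6).resolve_left ha0
    apply ha1
    have := f4_add_self hF (1 : F)
    linear_combination h7 - this
  have hv1 : f v v = 1 := (h01 v).resolve_left hv
  have hv0 : v ≠ 0 := by
    rintro rfl
    apply hv
    have := hsmul 0 0 (0 : V)
    simpa using this
  obtain ⟨u, hu⟩ : ∃ u, u ∉ Submodule.span F {v} := by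
    by_contra hcon
    push Not at hcon
    have htop : Submodule.span F {v} = ⊤ := by
      rw [eq_top_iff]; intro x _; exact hcon x
    have h1 := finrank_span_singleton (K := F) hv0
    rw [htop, finrank_top, hV] at h1
    omega
  obtain ⟨w, hw⟩ : ∃ w, w = u - f u v • v := ⟨_, rfl⟩
  have huw : u = w + f u v • v := by rw [hw]; abel
  have hw0 : w ≠ 0 := by
    intro h0
    apply hu
    rw [huw, h0, zero_add]
    exact Submodule.smul_mem _ _ (Submodule.mem_span_singleton_self v)
  have hwv : f w v = 0 := by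
    have h := hadd w (f u v • v) v
    rw [← huw, hsmul, hv1] at h
    linear_combination -h
  have hvw : f v w = 0 := by rw [hherm, hwv]; ring
  have hli : LinearIndependent F ![v, w] := by
    rw [LinearIndependent.pair_iff]
    intro s t hst
    have h1 : f (s • v + t • w) v = 0 := by
      rw [hst]
      have := hsmul 0 0 v
      simpa using this
    rw [hadd, hsmul, hsmul, hv1, hwv] at h1
    have hs : s = 0 := by linear_combination h1
    refine ⟨hs, ?_⟩
    rw [hs, zero_smul, zero_add] at hst
    exact (smul_eq_zero.1 hst).resolve_right hw0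
  have hspan : ∀ x, ∃ a b : F, x = a • v + b • w := by
    intro x
    have htop := hli.span_eq_top_of_card_eq_finrank' (by simp [hV])
    have hx : x ∈ Submodule.span F (Set.range ![v, w]) := by rw [htop]; trivial
    have hr : Set.range ![v, w] = {v, w} := by
      ext z; simp [eq_comm, or_comm]
    rw [hr, Submodule.mem_span_pair] at hx
    obtain ⟨a, b, hab⟩ := hx
    exact ⟨a, b, hab.symm⟩
  have hww : f w w ≠ 0 := by
    obtain ⟨x, hx⟩ := hnd w hw0
    obtain ⟨a, b, rfl⟩ := hspan x
    rw [hadd, hsmul, hsmul, hvw] at hx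
    intro h0
    rw [h0] at hx
    simp at hx
  have hw1 : f w w = 1 := (h01 w).resolve_left hww
  refine ⟨v, w, hv1, hw1, hvw, hwv, hspan, ?_⟩
  intro x hx
  obtain ⟨a, b, rfl⟩ := hspan x
  by_cases ha : a = 0
  · right; exact ⟨b, by rw [ha, zero_smul, zero_add]⟩
  by_cases hb : b = 0
  · left; exact ⟨a, by rw [hb, zero_smul, add_zero]⟩
  exfalso
  apply hx
  rw [hadd, hadd', hadd', hsmul, hsmul, hsmul', hsmul', hsmul, hsmul, hsmul', hsmul', hv1, hw1, hvw, hwv]
  have h1 := f4_cube hF ha
  have h2 := f4_cube hF hb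
  have h3 := f4_add_self hF (1 : F)
  linear_combination h1 + h2 + h3

end Cfsg.Agent.Lib.Helper71.UCQ2
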