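import Mathlib

/-!
Rung IDTR of the ladder for rank two pairs: the trace of a nonzero idempotent real matrix is a
positive integer.
-/

set_option autoImplicit false

namespace Cfsg.Agent.Lib.Helper71.FH

open Matrix

theorem trace_idem {Ω : Type*} [Fintype Ω] [DecidableEq Ω] (p : Matrix Ω Ω ℝ) (hp : p * p = p)
    (h0 : p ≠ 0) : ∃ D : ℕ, D ≠ 0 ∧ trace p = D := by
  have he : IsIdempotentElem (Matrix.toLin' p) := by
    show Matrix.toLin' p * Matrix.toLin' p = Matrix.toLin' p
    rw [Module.End.mul_eq_comp, ← Matrix.toLin'_mul, hp]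
  have h1 : LinearMap.trace ℝ (Ω → ℝ) (Matrix.toLin' p) = trace p := Matrix.trace_toLin'_eq p
  have h2 := (LinearMap.IsIdempotentElem.isProj_range _ he).trace
  refine ⟨Module.finrank ℝ (LinearMap.range (Matrix.toLin' p)), ?_, by rw [← h1, h2]⟩
  intro h3
  apply h0
  have h4 : LinearMap.trace ℝ (Ω → ℝ) (Matrix.toLin' p) = 0 := by rw [h2, h3]; simp
  have h5 := (LinearMap.IsIdempotentElem.trace_eq_zero_iff he).mp h4
  exact Matrix.toLin'.injective (by rw [h5, map_zero])

end Cfsg.Agent.Lib.Helper71.FH
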