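import Cfsg.Agent.Lib.Helper61.FHAlg2

/-!
Rung TRACE of the ladder for rank two pairs: values of the trace function attached to a central
idempotent on the alternating products.
-/

set_option autoImplicit false

namespace Cfsg.Agent.Lib.Helper71.FH

open Cfsg.Agent.Lib.Helper61.FH Matrix

variable {Ω : Type*} [Fintype Ω] [DecidableEq Ω] {A₁ A₂ : Matrix Ω Ω ℝ}

theorem rec2_succ_succ (x c s0 s1 : ℝ) (k : ℕ) :
    rec2 x c s0 s1 (k + 2) = x * rec2 x c s0 s1 (k + 1) - c * rec2 x c s0 s1 k := rfl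

theorem eq_rec2 (x c s0 s1 t : ℝ) (f : ℕ → ℝ) (h0 : f 0 = t * s0) (h1 : f 1 = t * s1)
    (h : ∀ k, f (k + 2) = x * f (k + 1) - c * f k) : ∀ k, f k = t * rec2 x c s0 s1 k := by
  have key : ∀ k, f k = t * rec2 x c s0 s1 k ∧ f (k + 1) = t * rec2 x c s0 s1 (k + 1) := by
    intro k
    induction k with
    | zero => exact ⟨h0, h1⟩
    | succ k ih =>
      refine ⟨ih.2, ?_⟩
      rw [h k, ih.1, ih.2, rec2_succ_succ]
      ring
  exact fun k => (key k).1

theorem trace_alt {a b x : ℝ} (ha : 0 < a) (hb : 0 < b)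
    (h₁ : A₁ * A₁ = a • (1 : Matrix Ω Ω ℝ) + (a - 1) • A₁)
    (h₂ : A₂ * A₂ = b • (1 : Matrix Ω Ω ℝ) + (b - 1) • A₂)
    (p : Matrix Ω Ω ℝ) (hc₁ : p * A₁ = A₁ * p) (hc₂ : p * A₂ = A₂ * p)
    (hx : cX a b A₁ A₂ * p = x • p) (hx1 : x ≠ a * b + 1) (hx2 : x ≠ -(a + b)) (n : ℕ) :
    trace (p * alt A₁ A₂ n) = trace p / 2 * chi a b x n := by
  have c1 : Commute p A₁ := hc₁
  have c2 : Commute p A₂ := hc₂
  have cXp : Commute p (cX a b A₁ A₂) := by
    unfold cX
    exact ((((c1.mul_right c2).add_right (c2.mul_right c1)).sub_right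
      (c1.smul_right _)).sub_right (c2.smul_right _)).add_right
        ((Commute.one_right p).smul_right _)
  set X := cX a b A₁ A₂ with hX
  have hpX : p * X = x • p := by rw [cXp.eq, hx]
  have hφX : ∀ M, trace (p * (X * M)) = x * trace (p * M) := by
    intro M
    rw [← mul_assoc, hpX, smul_mul_assoc, trace_smul, smul_eq_mul]
  have cyc : ∀ M N, Commute p N → trace (p * (M * N)) = trace (p * (N * M)) := by
    intro M N h
    rw [← mul_assoc, trace_mul_comm, ← mul_assoc, ← h.eq, mul_assoc]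
  set D := trace p with hD
  set u := trace (p * A₁) with hu
  set v := trace (p * A₂) with hv
  set w := trace (p * (A₁ * A₂)) with hw
  have hw' : trace (p * (A₂ * A₁)) = w := cyc A₂ A₁ c1
  have E1 : x * D = 2 * w - (b - 1) * u - (a - 1) * v + (a - 1) * (b - 1) * D := by
    have h := hφX 1
    rw [mul_one, mul_one] at h
    rw [← h, hX]
    unfold cX
    simp only [mul_add, mul_sub, mul_smul_comm, trace_add, trace_sub, trace_smul, smul_eq_mul,
      mul_one]
    rw [hw']
    ring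
  have h121 : trace (p * (A₁ * A₂ * A₁)) = a * v + (a - 1) * w := by
    rw [cyc (A₁ * A₂) A₁ c1, ← mul_assoc A₁, h₁]
    simp only [add_mul, mul_add, smul_mul_assoc, mul_smul_comm, trace_add, trace_smul, smul_eq_mul,
      one_mul]
    rfl
  have h212 : trace (p * (A₂ * A₁ * A₂)) = b * u + (b - 1) * w := by
    rw [cyc (A₂ * A₁) A₂ c2, ← mul_assoc A₂, h₂]
    simp only [add_mul, mul_add, smul_mul_assoc, mul_smul_comm, trace_add, trace_smul, smul_eq_mul,
      one_mul]
    rw [hw']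
  have E2 : x * u = 2 * a * v + (a - 1) * w - a * (b - 1) * D := by
    have h := hφX A₁
    have ht : X * A₁ = A₁ * A₂ * A₁ + a • A₂ - (a * (b - 1)) • (1 : Matrix Ω Ω ℝ) := by
      rw [tri (b := b) (A₂ := A₂) h₁]; abel
    rw [ht] at h
    simp only [mul_add, mul_sub, mul_smul_comm, trace_add, trace_sub, trace_smul, smul_eq_mul,
      mul_one] at h
    rw [h121] at h
    linarith
  have E3 : x * v = 2 * b * u + (b - 1) * w - b * (a - 1) * D := by
    have h := hφX A₂
    have ht : X * A₂ = A₂ * A₁ * A₂ + b • A₁ - (b * (a - 1)) • (1 : Matrix Ω Ω ℝ) := by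
      rw [tri (b := a) (A₂ := A₁) h₂, cX_swap]; abel
    rw [ht] at h
    simp only [mul_add, mul_sub, mul_smul_comm, trace_add, trace_sub, trace_smul, smul_eq_mul,
      mul_one] at h
    rw [h212] at h
    linarith
  have hu0 : u = (a - 1) * D / 2 := by
    have h : (x - (a * b + 1)) * (x + (a + b)) * (u - (a - 1) * D / 2) = 0 := by
      linear_combination (-((x - (a - 1) * (b - 1) / 2) * (a - 1) / 2 + (a + 1) ^ 2 * (b - 1) / 4)) *
        E1 + (x - (a - 1) * (b - 1) / 2) * E2 + ((a + 1) ^ 2 / 2) * E3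
    rcases mul_eq_zero.mp h with h | h
    · rcases mul_eq_zero.mp h with h | h
      · exact absurd (by linarith) hx1
      · exact absurd (by linarith) hx2
    · linarith
  have hv0 : v = (b - 1) * D / 2 := by
    have h : (a + 1) ^ 2 * (v - (b - 1) * D / 2) = 0 := by
      rw [hu0] at E1 E2
      linear_combination (a - 1) * E1 - 2 * E2
    rcases mul_eq_zero.mp h with h | h
    · exfalso
      have : 0 < (a + 1) ^ 2 := by positivity
      linarith
    · linarith
  have hw0 : w = x * D / 2 := by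
    rw [hu0, hv0] at E1
    linarith
  have hrotA : (A₁ * A₂) * (A₁ * A₂) = X * (A₁ * A₂) - (a * b) • (1 : Matrix Ω Ω ℝ) := by
    have := rot_sq (a := b) (b := a) (A₁ := A₂) (A₂ := A₁) h₂ h₁
    rw [cX_swap, mul_comm b a] at this
    exact this
  have hrotB : (A₂ * A₁) * (A₂ * A₁) = X * (A₂ * A₁) - (a * b) • (1 : Matrix Ω Ω ℝ) :=
    rot_sq h₁ h₂
  have heven : ∀ k, trace (p * (A₁ * A₂) ^ k) = D / 2 * rec2 x (a * b) 2 x k := by
    apply eq_rec2
    · rw [pow_zero, mul_one]; ring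
    · rw [pow_one, ← hw, hw0]; ring
    · intro k
      have e : (A₁ * A₂) ^ (k + 2) = X * (A₁ * A₂) ^ (k + 1) - (a * b) • (A₁ * A₂) ^ k := by
        rw [show k + 2 = 2 + k by ring, pow_add, pow_two, hrotA, sub_mul, smul_mul_assoc, one_mul,
          mul_assoc, ← pow_succ']
      rw [e, mul_sub, trace_sub, hφX, mul_smul_comm, trace_smul, smul_eq_mul]
  have hodd : ∀ k, trace (p * (A₁ * (A₂ * A₁) ^ k)) =
      D / 2 * rec2 x (a * b) (a - 1) (a * (b - 1) + (a - 1) * x) k := by
    apply eq_rec2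
    · rw [pow_zero, mul_one, ← hu, hu0]; ring
    · rw [pow_one, ← mul_assoc A₁, h121, hv0, hw0]; ring
    · intro k
      have e : A₁ * (A₂ * A₁) ^ (k + 2) =
          X * (A₁ * (A₂ * A₁) ^ (k + 1)) - (a * b) • (A₁ * (A₂ * A₁) ^ k) := by
        rw [show k + 2 = 2 + k by ring, pow_add, pow_two, hrotB, sub_mul, smul_mul_assoc, one_mul,
          mul_assoc, ← pow_succ', mul_sub, mul_smul_comm, ← mul_assoc A₁ X, ← mul_assoc X A₁,
          hX, cX_comm₁ h₁]
      rw [e, mul_sub, trace_sub, hφX, mul_smul_comm, trace_smul, smul_eq_mul]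
  rcases Nat.even_or_odd' n with ⟨k, rfl | rfl⟩
  · rw [alt_even, heven]
    unfold chi
    rw [if_pos (by omega), show 2 * k / 2 = k by omega]
  · rw [alt_odd, hodd]
    unfold chi
    rw [if_neg (by omega), show (2 * k + 1) / 2 = k by omega]

end Cfsg.Agent.Lib.Helper71.FH
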