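import Cfsg.Agent.Lib.Helper71.AlpA4c
import Cfsg.Agent.Lib.Helper77.AlpA1b
import Cfsg.Agent.Lib.Helper77.AlpA3

/-!
ALP ladder, rung A4: the p-group case of Alperin's theorem, with only GRPB left as a hypothesis.
-/

set_option autoImplicit false

namespace Cfsg.Agent.Lib.Helper71.Alp

open Cfsg.Agent.Lib.Lead.HKK

theorem alperin_pgroup_of_grpb (p : ℕ) [Fact p.Prime] (n c : ℕ) (hc1 : 1 ≤ c)
    (hGRPB : ∀ (H : Type) [Group H] [Finite H] (α : MulAut H), α ^ p = 1 → ∀ N : ℕ,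
      (∀ d g, g ∈ Γ H d → g⁻¹ * α g ∈ Γ H (d + 1) → g ^ N ∈ Γ H (d + 1)) →
      ∀ g ∈ Γ H c, g ^ (N ^ (c + 1) * p ^ c) ∈ Γ H (c + 1))
    (G : Type) [Group G] [Finite G] (hG : IsPGroup p G) (α : MulAut G) (hα : α ^ p = 1)
    (hfix : Nat.card {g : G // α g = g} ≤ p ^ n) :
    derivedSeries G ((n * (c + 1) + c) * (p * n) + (c + 1)) = ⊥ :=
  alperin_pgroup_of p n c hc1 hGRPB
    (fun _ _ _ hH α hfix Y _ g hg => Helper77.Alp.pow_mem_of_fix hH α n hfix Y g hg)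
    (fun _ _ _ hH α hα e hfix X Y _ _ hYX hab hexp =>
      Helper77.Alp.relIndex_le_of_section hH α hα n e hfix X Y hYX hab hexp)
    G hG α hα hfix

end Cfsg.Agent.Lib.Helper71.Alp
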