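import Mathlib
import Cfsg.Agent.Lib.Lead.HKK.Defs

/-!
ALP ladder, rung A5a: elementary facts on the derived series.
-/

set_option autoImplicit false

namespace Cfsg.Agent.Lib.Helper71.Alp

open Cfsg.Agent.Lib.Lead.HKK

theorem derivedSeries_add_eq_bot {G : Type*} [Group G] (N : Subgroup G) [N.Normal] (a b : ℕ)
    (ha : derivedSeries (G ⧸ N) a = ⊥) (hb : derivedSeries N b = ⊥) :
    derivedSeries G (a + b) = ⊥ := by
  have h1 : derivedSeries G a ≤ N := by
    have h2 := map_derivedSeries_eq (QuotientGroup.mk'_surjective N) a
    rw [ha] at h2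
    have h3 : derivedSeries G a ≤ (QuotientGroup.mk' N).ker := (Subgroup.map_eq_bot_iff _).mp h2
    rwa [QuotientGroup.ker_mk'] at h3
  have h2 : ∀ k : ℕ, derivedSeries G (a + k) ≤ (derivedSeries N k).map N.subtype := by
    intro k
    induction k with
    | zero =>
      rw [derivedSeries_zero, ← MonoidHom.range_eq_map, Subgroup.range_subtype]
      exact h1
    | succ k ih =>
      rw [← add_assoc, derivedSeries_succ, derivedSeries_succ, Subgroup.map_commutator]
      exact Subgroup.commutator_mono ih ih
  have h3 := h2 b
  rw [hb, Subgroup.map_bot] at h3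
  exact le_bot_iff.mp h3

theorem derivedSeries_eq_bot_of_card_le {T : Type*} [Group T] [Finite T]
    (hT : Group.IsSolvable T) (m : ℕ) (hm : Nat.card T ≤ m) : derivedSeries T m = ⊥ := by
  have key : ∀ k : ℕ, derivedSeries T k = ⊥ ∨ Nat.card (derivedSeries T k) + k ≤ Nat.card T := by
    intro k
    induction k with
    | zero =>
      right
      rw [derivedSeries_zero, Subgroup.card_top, add_zero]
    | succ k ih =>
      by_cases hb : derivedSeries T k = ⊥
      · left
        rw [derivedSeries_succ, hb, Subgroup.commutator_bot_left]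
      · right
        have h1 := ih.resolve_left hb
        have h2 : ⁅derivedSeries T k, derivedSeries T k⁆ < derivedSeries T k :=
          Group.IsSolvable.commutator_lt_of_ne_bot hb
        have h3 : Nat.card (⁅derivedSeries T k, derivedSeries T k⁆ : Subgroup T) <
            Nat.card (derivedSeries T k) := Set.ncard_lt_ncard h2 (Set.toFinite _)
        rw [derivedSeries_succ]
        omega
  rcases key m with h | h
  · exact h
  · have : 0 < Nat.card (derivedSeries T m) := Nat.card_pos
    omega

theorem derivedSeries_le_Γ (G : Type*) [Group G] (k : ℕ) : derivedSeries G k ≤ Γ G k := by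
  induction k with
  | zero => exact le_rfl
  | succ k ih =>
    rw [derivedSeries_succ]
    show _ ≤ ⁅Γ G k, (⊤ : Subgroup G)⁆
    exact Subgroup.commutator_mono ih le_top

end Cfsg.Agent.Lib.Helper71.Alp
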