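import Mathlib
import Cfsg.Agent.Lib.Lead.HKK.Defs
import Cfsg.Agent.Lib.Lead.HKK.AutDefs
import Cfsg.Agent.Lib.Helper71.AlpA5a
import Cfsg.Agent.S3781

/-!
ALP ladder, rung A4 (conditional form): the p-group case of Alperin's theorem, from GRPB, A1b, A3
(taken as hypotheses).
-/

set_option autoImplicit false

namespace Cfsg.Agent.Lib.Helper71.Alp

open Cfsg.Agent.Lib.Lead.HKK

theorem alperin_pgroup_of (p : ℕ) [Fact p.Prime] (n c : ℕ) (hc1 : 1 ≤ c)
    (hGRPB : ∀ (H : Type) [Group H] [Finite H] (α : MulAut H), α ^ p = 1 → ∀ N : ℕ,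
      (∀ d g, g ∈ Γ H d → g⁻¹ * α g ∈ Γ H (d + 1) → g ^ N ∈ Γ H (d + 1)) →
      ∀ g ∈ Γ H c, g ^ (N ^ (c + 1) * p ^ c) ∈ Γ H (c + 1))
    (hA1b : ∀ (H : Type) [Group H] [Finite H], IsPGroup p H → ∀ α : MulAut H,
      Nat.card {g : H // α g = g} ≤ p ^ n → ∀ (Y : Subgroup H) [Y.Characteristic] (g : H),
      g⁻¹ * α g ∈ Y → g ^ (p ^ n) ∈ Y)
    (hA3 : ∀ (H : Type) [Group H] [Finite H], IsPGroup p H → ∀ α : MulAut H, α ^ p = 1 →
      ∀ e : ℕ, Nat.card {g : H // α g = g} ≤ p ^ n →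
      ∀ (X Y : Subgroup H) [X.Characteristic] [Y.Characteristic], Y ≤ X → ⁅X, X⁆ ≤ Y →
      (∀ g ∈ X, g ^ (p ^ e) ∈ Y) → Y.relIndex X ≤ p ^ (e * (p * n)))
    (G : Type) [Group G] [Finite G] (hG : IsPGroup p G) (α : MulAut G) (hα : α ^ p = 1)
    (hfix : Nat.card {g : G // α g = g} ≤ p ^ n) :
    derivedSeries G ((n * (c + 1) + c) * (p * n) + (c + 1)) = ⊥ := by
  have hpp : p.Prime := Fact.out
  set e := n * (c + 1) + c with he
  set H : Subgroup G := Γ G (e * (p * n)) with hHdef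
  have hH : H.map α.toMonoidHom = H := map_aut_eq α H
  have hHp : IsPGroup p H := hG.to_subgroup H
  have hαH : (resAut α H hH) ^ p = 1 := resAut_pow_eq_one α H hH p hα
  have hfixH : Nat.card {x : H // resAut α H hH x = x} ≤ p ^ n :=
    (card_fix_resAut_le α H hH).trans hfix
  have step1 : ∀ g ∈ Γ H c, g ^ (p ^ e) ∈ Γ H (c + 1) := by
    have h1 := hGRPB H (resAut α H hH) hαH (p ^ n)
      (fun d g _ hg => hA1b H hHp (resAut α H hH) hfixH (Γ H (d + 1)) g hg)
    have h2 : (p ^ n) ^ (c + 1) * p ^ c = p ^ e := by rw [← pow_mul, ← pow_add]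
    rwa [h2] at h1
  have step2 : (Γ H (c + 1)).relIndex (Γ H c) ≤ p ^ (e * (p * n)) := by
    apply hA3 H hHp (resAut α H hH) hαH e hfixH (Γ H c) (Γ H (c + 1))
      (Subgroup.lowerCentralSeries_antitone _ (Nat.le_succ c)) _ step1
    show _ ≤ ⁅Γ H c, (⊤ : Subgroup H)⁆
    exact Subgroup.commutator_mono le_rfl le_top
  have step3 : Γ H (c + 1) = ⊥ := by
    by_contra hne
    have hne' : H.lowerCentralSeries (c + 1) ≠ ⊥ := by
      rw [← Subgroup.top_subtype_lowerCentralSeries]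
      intro h
      exact hne ((Subgroup.map_eq_bot_iff_of_injective _ H.subtype_injective).mp h)
    have h1 := Cfsg.Agent.S3781.result hG (e * (p * n) + 1) (by omega) H
      (by rw [Nat.add_sub_cancel]) (c + 1) (by omega) hne'
    rw [Nat.add_sub_cancel, ← Subgroup.top_subtype_lowerCentralSeries H (c + 1),
      ← Subgroup.top_subtype_lowerCentralSeries H c,
      Subgroup.relIndex_map_map_of_injective _ _ H.subtype_injective] at h1
    have h2 := h1.trans step2
    have h3 : p ^ (e * (p * n)) < p ^ (e * (p * n) + 1) :=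
      Nat.pow_lt_pow_right hpp.one_lt (Nat.lt_succ_self _)
    omega
  have step4 : derivedSeries H (c + 1) = ⊥ :=
    le_bot_iff.mp (step3 ▸ derivedSeries_le_Γ H (c + 1))
  have step5 : derivedSeries (G ⧸ H) (e * (p * n)) = ⊥ := by
    have h1 : Γ (G ⧸ H) (e * (p * n)) = ⊥ := by
      have h2 := Subgroup.map_lowerCentralSeries (⊤ : Subgroup G) (QuotientGroup.mk' H)
        (e * (p * n))
      rw [← MonoidHom.range_eq_map, MonoidHom.range_eq_top.mpr (QuotientGroup.mk'_surjective H)]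
        at h2
      show (⊤ : Subgroup (G ⧸ H)).lowerCentralSeries (e * (p * n)) = ⊥
      rw [← h2]
      exact (Subgroup.map_eq_bot_iff _).mpr (by rw [QuotientGroup.ker_mk'])
    exact le_bot_iff.mp (h1 ▸ derivedSeries_le_Γ (G ⧸ H) _)
  exact derivedSeries_add_eq_bot H _ _ step5 step4

end Cfsg.Agent.Lib.Helper71.Alp
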