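import Cfsg.Agent.Lib.Helper71.AlpA5c
import Cfsg.Agent.Lib.Helper77.AlpA1

/-!
ALP ladder, rung A5: the solvable case of Alperin's theorem, with only A5b left as a hypothesis.
-/

set_option autoImplicit false

namespace Cfsg.Agent.Lib.Helper71.Alp

open Cfsg.Agent.Lib.Lead.HKK

theorem alperin_solvable_of_a5b (p : ℕ) [Fact p.Prime] (n c l₁ : ℕ)
    (hA5b : ∀ (Q : Type) [Group Q] [Finite Q], Group.IsSolvable Q → Cfsg.pPrimeCore p Q = ⊥ →
      ∀ α : MulAut Q, α ^ p = 1 → Nat.card {g : Q // α g = g} ≤ p ^ n →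
      (Cfsg.pCore p Q).index ≤ (p ^ (p * n)).factorial)
    (hfpf : ∀ (K : Type) [Group K] [Finite K] (β : MulAut K), orderOf β = p →
      (∀ g, β g = g → g = 1) → Γ K c = ⊥)
    (h₁ : ∀ (P : Type) [Group P] [Finite P], IsPGroup p P → ∀ β : MulAut P, β ^ p = 1 →
      Nat.card {g : P // β g = g} ≤ p ^ n → derivedSeries P l₁ = ⊥)
    (G : Type) [Group G] [Finite G] (hG : Group.IsSolvable G) (α : MulAut G) (hα : orderOf α = p)
    (hfix : Nat.card {g : G // α g = g} = p ^ n) :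
    derivedSeries G ((p ^ (p * n)).factorial + l₁ + c) = ⊥ :=
  alperin_solvable_of p n c l₁
    (fun _ _ _ α Y _ hY => Helper77.Alp.card_fix_quotAut_le α Y hY) hA5b hfpf h₁ G hG α hα hfix

end Cfsg.Agent.Lib.Helper71.Alp
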