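import Mathlib
import Cfsg.Agent.Lib.Lead.HKK.Defs
import Cfsg.Agent.Lib.Lead.HKK.AutDefs
import Cfsg.Agent.Lib.Helper71.AlpA5a
import Cfsg.Agent.Lib.Helper28.Cores
import Cfsg.Agent.Lib.Helper14.PConstrained

/-!
ALP ladder, rung A5 (conditional form): the solvable case of Alperin's theorem, from the
p-group case, the fixed point free case, and the rungs A1, A5b (taken as hypotheses).
-/

set_option autoImplicit false

namespace Cfsg.Agent.Lib.Helper71.Alp

open Cfsg.Agent.Lib.Lead.HKK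

theorem alperin_solvable_of (p : ℕ) [Fact p.Prime] (n c l₁ : ℕ)
    (hA1 : ∀ (G : Type) [Group G] [Finite G] (α : MulAut G) (Y : Subgroup G) [Y.Normal]
      (hY : Y.map α.toMonoidHom = Y),
      Nat.card {x : G ⧸ Y // quotAut α Y hY x = x} ≤ Nat.card {g : G // α g = g})
    (hA5b : ∀ (Q : Type) [Group Q] [Finite Q], Group.IsSolvable Q → Cfsg.pPrimeCore p Q = ⊥ →
      ∀ α : MulAut Q, α ^ p = 1 → Nat.card {g : Q // α g = g} ≤ p ^ n →
      (Cfsg.pCore p Q).index ≤ (p ^ (p * n)).factorial)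
    (hfpf : ∀ (K : Type) [Group K] [Finite K] (β : MulAut K), orderOf β = p →
      (∀ g, β g = g → g = 1) → Γ K c = ⊥)
    (h₁ : ∀ (P : Type) [Group P] [Finite P], IsPGroup p P → ∀ β : MulAut P, β ^ p = 1 →
      Nat.card {g : P // β g = g} ≤ p ^ n → derivedSeries P l₁ = ⊥)
    (G : Type) [Group G] [Finite G] (hG : Group.IsSolvable G) (α : MulAut G) (hα : orderOf α = p)
    (hfix : Nat.card {g : G // α g = g} = p ^ n) :
    derivedSeries G ((p ^ (p * n)).factorial + l₁ + c) = ⊥ := by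
  have hpp : p.Prime := Fact.out
  have hαp : α ^ p = 1 := by rw [← hα]; exact pow_orderOf_eq_one α
  have hKchar : (Cfsg.pPrimeCore p G).Characteristic := Helper28.pPrimeCore_characteristic p
  have hK : (Cfsg.pPrimeCore p G).map α.toMonoidHom = Cfsg.pPrimeCore p G := map_aut_eq α _
  -- the fixed point subgroup
  let F : Subgroup G := MonoidHom.eqLocus α.toMonoidHom (MonoidHom.id G)
  have hFmem : ∀ g : G, g ∈ F ↔ α g = g := fun g => Iff.rfl
  have hFcard : Nat.card F = p ^ n := by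
    rw [← hfix]
    exact Nat.card_congr (Equiv.subtypeEquivRight hFmem)
  -- the restriction to `K` is fixed point free
  have hfree : ∀ x : Cfsg.pPrimeCore p G, resAut α _ hK x = x → x = 1 := by
    intro x hx
    have h1 : α (x : G) = x := by
      have := congrArg Subtype.val hx
      simpa using this
    have h2 : orderOf (x : G) ∣ p ^ n := by
      rw [← hFcard]
      have := orderOf_dvd_natCard (⟨(x : G), (hFmem _).mpr h1⟩ : F)
      rwa [Subgroup.orderOf_mk] at this
    have h3 : orderOf (x : G) ∣ Nat.card (Cfsg.pPrimeCore p G) := by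
      have := orderOf_dvd_natCard x
      rwa [Subgroup.orderOf_coe]
    have h4 : (Nat.card (Cfsg.pPrimeCore p G)).Coprime (p ^ n) :=
      Nat.Coprime.pow_right n (Helper28.pPrimeCore_coprime p)
    have h5 : orderOf (x : G) = 1 := Nat.eq_one_of_dvd_coprimes h4 h3 h2
    exact Subtype.ext (orderOf_eq_one_iff.mp h5)
  have hKder : derivedSeries (Cfsg.pPrimeCore p G) c = ⊥ := by
    by_cases hβ : resAut α _ hK = 1
    · have hsub : Subsingleton (Cfsg.pPrimeCore p G) := by
        constructor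
        intro x y
        rw [hfree x (by rw [hβ]; rfl), hfree y (by rw [hβ]; rfl)]
      exact Subsingleton.elim _ _
    · have ho : orderOf (resAut α _ hK) = p :=
        orderOf_eq_prime (resAut_pow_eq_one α _ hK p hαp) hβ
      have h1 := hfpf (Cfsg.pPrimeCore p G) (resAut α _ hK) ho hfree
      exact le_bot_iff.mp (h1 ▸ derivedSeries_le_Γ _ c)
  -- the quotient
  have hQO : Cfsg.pPrimeCore p (G ⧸ Cfsg.pPrimeCore p G) = ⊥ :=
    Helper14.pPrimeCore_quotient_pPrimeCore
  have hQsolv : Group.IsSolvable (G ⧸ Cfsg.pPrimeCore p G) := inferInstance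
  have hᾱp : (quotAut α _ hK) ^ p = 1 := quotAut_pow_eq_one α _ hK p hαp
  have hᾱfix : Nat.card {x : G ⧸ Cfsg.pPrimeCore p G // quotAut α _ hK x = x} ≤ p ^ n :=
    hfix ▸ hA1 G α _ hK
  have hPchar : (Cfsg.pCore p (G ⧸ Cfsg.pPrimeCore p G)).Characteristic :=
    Helper28.pCore_characteristic p
  have hP : (Cfsg.pCore p (G ⧸ Cfsg.pPrimeCore p G)).map (quotAut α _ hK).toMonoidHom =
      Cfsg.pCore p (G ⧸ Cfsg.pPrimeCore p G) := map_aut_eq _ _
  have hPder : derivedSeries (Cfsg.pCore p (G ⧸ Cfsg.pPrimeCore p G)) l₁ = ⊥ :=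
    h₁ _ (Helper28.pCore_isPGroup p) (resAut (quotAut α _ hK) _ hP)
      (resAut_pow_eq_one _ _ hP p hᾱp) ((card_fix_resAut_le _ _ hP).trans hᾱfix)
  have hidx := hA5b _ hQsolv hQO (quotAut α _ hK) hᾱp hᾱfix
  have hQPder : derivedSeries ((G ⧸ Cfsg.pPrimeCore p G) ⧸
      Cfsg.pCore p (G ⧸ Cfsg.pPrimeCore p G)) (p ^ (p * n)).factorial = ⊥ :=
    derivedSeries_eq_bot_of_card_le inferInstance _ hidx
  have hQder := derivedSeries_add_eq_bot _ _ _ hQPder hPder
  exact derivedSeries_add_eq_bot _ _ _ hQder hKder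

end Cfsg.Agent.Lib.Helper71.Alp
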