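import Cfsg.Agent.Lib.Helper61.FHDefs

/-!
Rung NT of the ladder for rank two pairs: rationality of the multiplicity quotient forces
`m ∈ {2, 3, 4, 6, 8}`.
-/

set_option autoImplicit false

namespace Cfsg.Agent.Lib.Helper71.FH

open Cfsg.Agent.Lib.Helper61.FH Real

theorem cos_sq_lt_one_of_lt {θ : ℝ} (h0 : 0 < θ) (h1 : θ < π) : cos θ ^ 2 < 1 := by
  have h2 : cos θ < 1 := by
    have := Real.cos_lt_cos_of_nonneg_of_le_pi (le_refl 0) h1.le h0
    simpa using this
  have h3 : -1 < cos θ := by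
    have := Real.cos_lt_cos_of_nonneg_of_le_pi h0.le le_rfl h1
    simpa using this
  nlinarith

theorem even_rat (a b : ℕ) (ha : 2 ≤ a) (hb : 2 ≤ b) (x : ℝ) (hx : x ^ 2 < 4 * (a : ℝ) * b)
    (r r' : ℚ)
    (h1 : 4 * (a : ℝ) * b - x ^ 2 = r * (((a : ℝ) * b + 1 - x) * ((a : ℝ) + b + x)))
    (h2 : 4 * (a : ℝ) * b - (-x) ^ 2 = r' * (((a : ℝ) * b + 1 - (-x)) * ((a : ℝ) + b + (-x)))) :
    ∃ q : ℚ, x = q := by
  have ha' : (2 : ℝ) ≤ a := by exact_mod_cast ha
  have hb' : (2 : ℝ) ≤ b := by exact_mod_cast hb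
  have hr : (r : ℝ) ≠ 0 := by
    intro h; rw [h] at h1; linarith
  have hr' : (r' : ℝ) ≠ 0 := by
    intro h; rw [h] at h2; nlinarith
  have hP : 4 * (a : ℝ) * b < ((a : ℝ) * b + 1) * ((a : ℝ) + b) := by
    nlinarith [mul_nonneg (sub_nonneg.mpr ha') (sub_nonneg.mpr hb')]
  have e1 : x ^ 2 * (2 * (r : ℝ) * r' - r - r') =
      2 * r * r' * (((a : ℝ) * b + 1) * ((a : ℝ) + b)) - 4 * a * b * (r + r') := by
    linear_combination (r' : ℝ) * h1 + (r : ℝ) * h2
  have hden : 2 * (r : ℝ) * r' - r - r' ≠ 0 := by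
    intro h
    rw [h, mul_zero] at e1
    have e2 : (r : ℝ) + r' = 2 * r * r' := by linarith
    rw [e2] at e1
    have e3 : (r : ℝ) * r' * (((a : ℝ) * b + 1) * ((a : ℝ) + b) - 4 * a * b) = 0 := by
      linarith
    rcases mul_eq_zero.mp e3 with h | h
    · exact (mul_ne_zero hr hr') h
    · linarith
  have hD : ((a : ℝ) - 1) * ((b : ℝ) - 1) ≠ 0 := by
    apply mul_ne_zero <;> linarith
  have e4 : x * (2 * (r : ℝ) * r' * (((a : ℝ) - 1) * ((b : ℝ) - 1))) =
      (r' - r) * (4 * a * b - x ^ 2) := by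
    linear_combination (-(r' : ℝ)) * h1 + (r : ℝ) * h2
  have hy : x ^ 2 = (2 * r * r' * (((a : ℝ) * b + 1) * ((a : ℝ) + b)) - 4 * a * b * (r + r')) /
      (2 * (r : ℝ) * r' - r - r') := by
    rw [eq_div_iff hden, e1]
  have hx' : x = (r' - r) * (4 * a * b - x ^ 2) /
      (2 * (r : ℝ) * r' * (((a : ℝ) - 1) * ((b : ℝ) - 1))) := by
    rw [eq_div_iff (mul_ne_zero (mul_ne_zero (mul_ne_zero two_ne_zero hr) hr') hD), e4]
  refine ⟨(r' - r) * (4 * a * b - (2 * r * r' * (((a : ℚ) * b + 1) * ((a : ℚ) + b)) -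
    4 * a * b * (r + r')) / (2 * r * r' - r - r')) /
      (2 * r * r' * (((a : ℚ) - 1) * ((b : ℚ) - 1))), ?_⟩
  push_cast
  rw [← hy]
  exact hx'

theorem odd_rat (q : ℕ) (hq : 2 ≤ q) (x : ℝ) (hx : x ^ 2 < 4 * (q : ℝ) * q) (r : ℚ)
    (h1 : 4 * (q : ℝ) * q - x ^ 2 = r * (((q : ℝ) * q + 1 - x) * ((q : ℝ) + q + x))) :
    ∃ y : ℚ, x = y := by
  have hq' : (2 : ℝ) ≤ q := by exact_mod_cast hq
  have hpos : 0 < (q : ℝ) + q + x := by nlinarith
  have e1 : (q : ℝ) + q - x = r * ((q : ℝ) * q + 1 - x) := by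
    apply mul_right_cancel₀ hpos.ne'
    linear_combination h1
  have hr : (r : ℝ) - 1 ≠ 0 := by
    intro h
    have h2 : (r : ℝ) = 1 := by linarith
    rw [h2] at e1
    nlinarith
  have e2 : x = (r * ((q : ℝ) * q + 1) - 2 * q) / ((r : ℝ) - 1) := by
    rw [eq_div_iff hr]
    linear_combination e1
  refine ⟨(r * ((q : ℚ) * q + 1) - 2 * q) / (r - 1), ?_⟩
  push_cast
  exact e2

/-- consequence of Niven's theorem -/
theorem niven_two_div (K : ℕ) (hK : 2 ≤ K) (h : ∃ q : ℚ, cos (2 * π / K) = q) :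
    K = 2 ∨ K = 3 ∨ K = 4 ∨ K = 6 := by
  have hK0 : (K : ℚ) ≠ 0 := by
    have : 0 < K := by omega
    exact_mod_cast this.ne'
  have hK2 : (2 : ℚ) ≤ K := by exact_mod_cast hK
  have h1 : ∃ q : ℚ, cos (((2 / K : ℚ) : ℝ) * π) = q := by
    obtain ⟨q, hq⟩ := h
    refine ⟨q, ?_⟩
    rw [← hq]
    congr 1
    push_cast
    ring
  have h2 := niven_angle_div_pi_eq h1 ⟨by positivity, by rw [div_le_one (by linarith)]; exact hK2⟩
  simp only [Set.mem_insert_iff, Set.mem_singleton_iff] at h2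
  rcases h2 with h2 | h2 | h2 | h2 | h2
  · exfalso
    rw [div_eq_zero_iff] at h2
    rcases h2 with h2 | h2
    · norm_num at h2
    · exact hK0 h2
  · right; right; right
    rw [div_eq_div_iff hK0 (by norm_num)] at h2
    have : (K : ℚ) = 6 := by linarith
    exact_mod_cast this
  · right; right; left
    rw [div_eq_div_iff hK0 (by norm_num)] at h2
    have : (K : ℚ) = 4 := by linarith
    exact_mod_cast this
  · right; left
    rw [div_eq_div_iff hK0 (by norm_num)] at h2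
    have : (K : ℚ) = 3 := by linarith
    exact_mod_cast this
  · left
    rw [div_eq_one_iff_eq hK0] at h2
    exact_mod_cast h2.symm

theorem xj_sq_lt' (a b : ℝ) (ha : 0 < a) (hb : 0 < b) (m j : ℕ) (hj : 0 < j) (hjm : 2 * j < m) :
    xj a b m j ^ 2 < 4 * a * b := by
  have hm : (0 : ℝ) < m := by
    have : 0 < m := by omega
    exact_mod_cast this
  have hj' : (0 : ℝ) < j := by exact_mod_cast hj
  have hjm' : 2 * (j : ℝ) < m := by exact_mod_cast hjm
  have h1 : cos (2 * π * j / m) ^ 2 < 1 := by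
    apply cos_sq_lt_one_of_lt
    · positivity
    · rw [div_lt_iff₀ hm]
      nlinarith [pi_pos]
  have h2 : √(a * b) ^ 2 = a * b := Real.sq_sqrt (by positivity)
  unfold xj
  have h3 : (2 * √(a * b) * cos (2 * π * j / m)) ^ 2 = 4 * (a * b) * cos (2 * π * j / m) ^ 2 := by
    rw [mul_pow, mul_pow, h2]; ring
  rw [h3]
  have : 0 < a * b := by positivity
  nlinarith

theorem nt (m a b : ℕ) (hm : 2 ≤ m) (ha : 2 ≤ a) (hb : 2 ≤ b) (hodd : m % 2 = 1 → a = b)
    (h : ∀ j, 0 < j → 2 * j < m → ∃ r : ℚ, 4 * (a : ℝ) * b - xj a b m j ^ 2 =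
      r * (((a : ℝ) * b + 1 - xj a b m j) * ((a : ℝ) + b + xj a b m j))) :
    m ∈ ({2, 3, 4, 6, 8} : Set ℕ) := by
  have ha0 : (0 : ℝ) < a := by
    have : 0 < a := by omega
    exact_mod_cast this
  have hb0 : (0 : ℝ) < b := by
    have : 0 < b := by omega
    exact_mod_cast this
  simp only [Set.mem_insert_iff, Set.mem_singleton_iff]
  rcases Nat.even_or_odd' m with ⟨K, rfl | rfl⟩
  · -- even case
    by_cases hK1 : K = 1
    · left; omega
    have hK2 : 2 ≤ K := by omega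
    have hKpos : (0 : ℝ) < K := by
      have : 0 < K := by omega
      exact_mod_cast this
    have hneg : ∀ j, j < K → xj a b (2 * K) (K - j) = - xj a b (2 * K) j := by
      intro j hj
      unfold xj
      have : 2 * π * ((K - j : ℕ) : ℝ) / ((2 * K : ℕ) : ℝ) = π - 2 * π * j / ((2 * K : ℕ) : ℝ) := by
        rw [Nat.cast_sub hj.le]
        push_cast
        field_simp
      rw [this, cos_pi_sub]
      ring
    have hrat : ∀ j, 0 < j → j < K → ∃ q : ℚ, xj a b (2 * K) j = q := by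
      intro j hj0 hjK
      obtain ⟨r, hr⟩ := h j hj0 (by omega)
      obtain ⟨r', hr'⟩ := h (K - j) (by omega) (by omega)
      rw [hneg j hjK] at hr'
      exact even_rat a b ha hb _ (xj_sq_lt' a b ha0 hb0 _ j hj0 (by omega)) r r' hr hr'
    have hcos : ∃ q : ℚ, cos (2 * π / K) = q := by
      obtain ⟨q, hq⟩ := hrat 1 one_pos (by omega)
      refine ⟨q ^ 2 / (2 * a * b) - 1, ?_⟩
      push_cast
      rw [← hq]
      unfold xj
      have h2 : √((a : ℝ) * b) ^ 2 = a * b := Real.sq_sqrt (by positivity)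
      have h3 : 2 * π / K = 2 * (2 * π * ((1 : ℕ) : ℝ) / ((2 * K : ℕ) : ℝ)) := by
        push_cast
        field_simp
      rw [h3, cos_two_mul, mul_pow, mul_pow, h2]
      field_simp
    rcases niven_two_div K hK2 hcos with rfl | rfl | rfl | rfl
    · right; right; left; rfl
    · right; right; right; left; rfl
    · right; right; right; right; rfl
    · exfalso
      obtain ⟨q1, hq1⟩ := hrat 1 one_pos (by norm_num)
      obtain ⟨q2, hq2⟩ := hrat 2 (by norm_num) (by norm_num)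
      unfold xj at hq1 hq2
      have e1 : 2 * π * ((1 : ℕ) : ℝ) / ((2 * 6 : ℕ) : ℝ) = π / 6 := by
        push_cast; ring
      have e2 : 2 * π * ((2 : ℕ) : ℝ) / ((2 * 6 : ℕ) : ℝ) = π / 3 := by
        push_cast; ring
      rw [e1, cos_pi_div_six] at hq1
      rw [e2, cos_pi_div_three] at hq2
      have hs : 0 < √((a : ℝ) * b) := Real.sqrt_pos.mpr (by positivity)
      have hq2' : (q2 : ℝ) ≠ 0 := by
        rw [← hq2]; positivity
      have h3 : √3 = ((q1 / q2 : ℚ) : ℝ) := by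
        push_cast
        rw [eq_div_iff hq2', ← hq1, ← hq2]
        ring
      have hirr : Irrational √3 := by
        have := Nat.prime_three.irrational_sqrt
        simpa using this
      exact hirr ⟨_, h3.symm⟩
  · -- odd case
    have hab : a = b := hodd (by omega)
    subst hab
    have hK1 : 1 ≤ K := by omega
    obtain ⟨r, hr⟩ := h 1 one_pos (by omega)
    obtain ⟨y, hy⟩ := odd_rat a ha _ (xj_sq_lt' a a ha0 ha0 _ 1 one_pos (by omega)) r hr
    have hcos : ∃ q : ℚ, cos (2 * π / ((2 * K + 1 : ℕ) : ℝ)) = q := by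
      refine ⟨y / (2 * a), ?_⟩
      push_cast
      rw [← hy]
      unfold xj
      rw [Real.sqrt_mul_self ha0.le]
      push_cast
      field_simp
    rcases niven_two_div (2 * K + 1) (by omega) hcos with h | h | h | h <;> omega

end Cfsg.Agent.Lib.Helper71.FH
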