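import Mathlib

/-!
HKK ladder, rung KK1: subsequence sums of nonzero residues modulo a prime.
-/

set_option autoImplicit false

namespace Cfsg.Agent.Lib.Helper71.HKK

open scoped Pointwise

theorem exists_perm_append_sum {p : ℕ} [Fact p.Prime] {β : Type*} (l : List (ZMod p × β))
    (hl : p - 1 ≤ l.length) (h0 : ∀ q ∈ l, q.1 ≠ 0) (t : ZMod p) :
    ∃ l₁ l₂ : List (ZMod p × β), l.Perm (l₁ ++ l₂) ∧ (l₁.map Prod.fst).sum = t := by
  classical
  have hp : p.Prime := Fact.out
  have key : ∀ l : List (ZMod p × β), (∀ q ∈ l, q.1 ≠ 0) →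
      min p (l.length + 1) ≤ (Finset.univ.filter (fun t : ZMod p =>
        ∃ l₁ l₂ : List (ZMod p × β), l.Perm (l₁ ++ l₂) ∧ (l₁.map Prod.fst).sum = t)).card := by
    intro l
    induction l with
    | nil =>
      intro _
      have h1 : (0 : ZMod p) ∈ Finset.univ.filter (fun t : ZMod p =>
          ∃ l₁ l₂ : List (ZMod p × β), ([] : List (ZMod p × β)).Perm (l₁ ++ l₂) ∧
            (l₁.map Prod.fst).sum = t) := by
        simp only [Finset.mem_filter, Finset.mem_univ, true_and]
        exact ⟨[], [], by simp, by simp⟩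
      have h2 := Finset.card_pos.mpr ⟨_, h1⟩
      simp only [List.length_nil]
      omega
    | cons q l ih =>
      intro h0
      have ih' := ih (fun r hr => h0 r (List.mem_cons_of_mem _ hr))
      set S := Finset.univ.filter (fun t : ZMod p =>
        ∃ l₁ l₂ : List (ZMod p × β), l.Perm (l₁ ++ l₂) ∧ (l₁.map Prod.fst).sum = t) with hS
      set S' := Finset.univ.filter (fun t : ZMod p =>
        ∃ l₁ l₂ : List (ZMod p × β), (q :: l).Perm (l₁ ++ l₂) ∧ (l₁.map Prod.fst).sum = t) with hS'
      have hsub : S + ({0, q.1} : Finset (ZMod p)) ⊆ S' := by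
        intro t ht
        rw [Finset.mem_add] at ht
        obtain ⟨s, hs, e, he, rfl⟩ := ht
        simp only [hS, hS', Finset.mem_filter, Finset.mem_univ, true_and] at hs ⊢
        obtain ⟨l₁, l₂, hperm, hsum⟩ := hs
        simp only [Finset.mem_insert, Finset.mem_singleton] at he
        rcases he with rfl | rfl
        · exact ⟨l₁, q :: l₂, (hperm.cons q).trans List.perm_middle.symm, by simpa using hsum⟩
        · exact ⟨q :: l₁, l₂, hperm.cons q, by simp [hsum, add_comm]⟩
      have hSne : S.Nonempty := by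
        rw [← Finset.card_pos]
        have := hp.pos
        omega
      have hcd := ZMod.cauchy_davenport hp (s := S) (t := {0, q.1}) hSne ⟨0, by simp⟩
      have h2 : ({0, q.1} : Finset (ZMod p)).card = 2 :=
        Finset.card_pair (h0 q (by simp)).symm
      have h3 := Finset.card_le_card hsub
      simp only [List.length_cons]
      omega
  have h1 := key l h0
  have h2 : min p (l.length + 1) = p := by omega
  rw [h2] at h1
  have h3 : (Finset.univ.filter (fun t : ZMod p =>
      ∃ l₁ l₂ : List (ZMod p × β), l.Perm (l₁ ++ l₂) ∧ (l₁.map Prod.fst).sum = t)) =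
      Finset.univ := by
    apply Finset.eq_univ_of_card
    apply le_antisymm
    · exact Finset.card_le_univ _
    · rw [ZMod.card]; exact h1
  have h4 : t ∈ (Finset.univ.filter (fun t : ZMod p =>
      ∃ l₁ l₂ : List (ZMod p × β), l.Perm (l₁ ++ l₂) ∧ (l₁.map Prod.fst).sum = t)) := by
    rw [h3]; exact Finset.mem_univ t
  simpa using h4

end Cfsg.Agent.Lib.Helper71.HKK
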