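import Cfsg.Agent.Lib.Lead.HKK.Basic
import Cfsg.Agent.Lib.Helper71.HKKKk1

/-!
HKK ladder, rung KK2: `kk_step`.
-/

set_option autoImplicit false

namespace Cfsg.Agent.Lib.Helper71.HKK

open Cfsg.Agent.Lib.Lead.HKK

theorem kk_step {L : Type*} [LieRing L] {p : ℕ} [Fact p.Prime] (K : ZMod p → AddSubgroup L)
    (hK : IsGr K) (J : ZMod p → AddSubgroup L) (I : AddSubgroup L) (hJK : ∀ i, J i ≤ K i)
    (hJ : ∀ (a b : ZMod p) (x y : L), x ∈ J a → y ∈ K b → ⁅x, y⁆ ∈ J (a + b))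
    (h1 : ∀ (a b c : ZMod p) (x y z : L), x ∈ J a → y ∈ K b → z ∈ K c → ⁅x, ⁅y, z⁆⁆ ∈ I)
    (h2 : ∀ (a : ZMod p) (x y : L), x ∈ I → y ∈ K a → ⁅x, y⁆ ∈ I) (b : ZMod p) (x : L)
    (hx : x ∈ J b) (l : List (ZMod p × L)) (hl : l.length = p - 1)
    (hlK : ∀ q ∈ l, q.2 ∈ K q.1) : lnb x (l.map Prod.snd) ∈ I := by
  -- `I` is stable under left normed brackets
  have hI : ∀ (l : List (ZMod p × L)), (∀ q ∈ l, q.2 ∈ K q.1) → ∀ w ∈ I,
      lnb w (l.map Prod.snd) ∈ I := by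
    intro l
    induction l with
    | nil => intro _ w hw; simpa using hw
    | cons q l ih =>
      intro hq w hw
      rw [List.map_cons, lnb_cons]
      exact ih (fun r hr => hq r (List.mem_cons_of_mem _ hr)) _ (h2 q.1 w q.2 hw (hq q (by simp)))
  -- permutation invariance modulo `I`
  have hperm : ∀ (l l' : List (ZMod p × L)), l.Perm l' → (∀ q ∈ l, q.2 ∈ K q.1) →
      ∀ (b : ZMod p) (x : L), x ∈ J b →
        lnb x (l.map Prod.snd) - lnb x (l'.map Prod.snd) ∈ I := by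
    intro l l' h
    induction h with
    | nil => intro _ b x _; simp
    | cons q _ ih =>
      intro hq b x hx
      rw [List.map_cons, List.map_cons, lnb_cons, lnb_cons]
      exact ih (fun r hr => hq r (List.mem_cons_of_mem _ hr)) (b + q.1) _
        (hJ b q.1 x q.2 hx (hq q (by simp)))
    | swap q r l =>
      intro hq b x hx
      simp only [List.map_cons, lnb_cons]
      rw [← lnb_sub]
      apply hI l (fun s hs => hq s (by simp [hs]))
      have e : ⁅⁅x, r.2⁆, q.2⁆ - ⁅⁅x, q.2⁆, r.2⁆ = ⁅x, ⁅r.2, q.2⁆⁆ := by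
        rw [leibniz_lie x r.2 q.2, ← lie_skew r.2 ⁅x, q.2⁆]
        abel
      rw [e]
      exact h1 b r.1 q.1 x r.2 q.2 hx (hq r (by simp)) (hq q (by simp))
    | trans h₁ _ ih₁ ih₂ =>
      intro hq b x hx
      have e1 := ih₁ hq b x hx
      have e2 := ih₂ (fun r hr => hq r (h₁.mem_iff.mpr hr)) b x hx
      have := I.add_mem e1 e2
      simpa using this
  by_cases hz : ∃ q ∈ l, q.1 = 0
  · obtain ⟨q, hq, hq0⟩ := hz
    classical
    obtain ⟨l', hl'⟩ : ∃ l', l.Perm (q :: l') := ⟨l.erase q, List.perm_cons_erase hq⟩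
    have e1 := hperm l (q :: l') hl' hlK b x hx
    have hq2 : q.2 = 0 := hK.eq_zero (hq0 ▸ hlK q hq)
    rw [List.map_cons, lnb_cons, hq2, lie_zero, lnb_zero, sub_zero] at e1
    exact e1
  · push Not at hz
    obtain ⟨l₁, l₂, hp12, hsum⟩ := exists_perm_append_sum l (by omega) hz (-b)
    have e1 := hperm l (l₁ ++ l₂) hp12 hlK b x hx
    have hl1 : ∀ q ∈ l₁, q.2 ∈ K q.1 := fun q hq =>
      hlK q (hp12.mem_iff.mpr (List.mem_append_left _ hq))
    have e2 := hK.lnb_mem (hJK b hx) l₁ hl1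
    rw [hsum, add_neg_cancel] at e2
    have e3 := hK.eq_zero e2
    rw [List.map_append, lnb_append, e3, lnb_zero, sub_zero] at e1
    exact e1

end Cfsg.Agent.Lib.Helper71.HKK
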