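import Cfsg.Agent.Lib.Lead.HKK.Basic
import Cfsg.Agent.Lib.Helper71.HKKKk2

/-!
HKK ladder, rung KK3: `kk` (Kreknin-Kostrikin: solvable of derived length `s` implies nilpotent).
-/

set_option autoImplicit false

namespace Cfsg.Agent.Lib.Helper71.HKK

open Cfsg.Agent.Lib.Lead.HKK

variable {L : Type*} [LieRing L] {n : ℕ}

/-- `gam K (m + r)` is spanned by left normed brackets of length `r` over `gam K m`. -/
theorem gam_add_le (K : ZMod n → AddSubgroup L) (m r : ℕ) (i : ZMod n) :
    gam K (m + r) i ≤ AddSubgroup.closure {z | ∃ (b : ZMod n) (x : L) (l : List (ZMod n × L)),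
      x ∈ gam K m b ∧ l.length = r ∧ (∀ q ∈ l, q.2 ∈ K q.1) ∧ z = lnb x (l.map Prod.snd)} := by
  induction r generalizing i with
  | zero =>
    intro x hx
    exact AddSubgroup.subset_closure ⟨i, x, [], hx, rfl, by simp, by simp⟩
  | succ r ih =>
    show brk (gam K (m + r)) K i ≤ _
    apply brk_le (C := fun _ => AddSubgroup.closure {z | ∃ (b : ZMod n) (x : L)
      (l : List (ZMod n × L)), x ∈ gam K m b ∧ l.length = r + 1 ∧ (∀ q ∈ l, q.2 ∈ K q.1) ∧
        z = lnb x (l.map Prod.snd)})
    intro a c w y hw hy
    have hw' := ih a hw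
    clear hw
    induction hw' using AddSubgroup.closure_induction with
    | mem w hw =>
      obtain ⟨b, x, l, hx, hl, hlK, rfl⟩ := hw
      refine AddSubgroup.subset_closure ⟨b, x, l ++ [(c, y)], hx, by simp [hl], ?_, ?_⟩
      · intro q hq
        rcases List.mem_append.mp hq with h | h
        · exact hlK q h
        · rw [List.mem_singleton] at h
          rw [h]; exact hy
      · rw [List.map_append, List.map_cons, List.map_nil, lnb_concat]
    | zero => rw [zero_lie]; exact AddSubgroup.zero_mem _
    | add u v _ _ hu hv => rw [add_lie]; exact AddSubgroup.add_mem _ hu hv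
    | neg u _ hu => rw [neg_lie]; exact AddSubgroup.neg_mem _ hu

/-- the terms of the lower central family of `der K` are ideals. -/
theorem gam_der_ideal (K : ZMod n → AddSubgroup L) (hK : IsGr K) (k : ℕ) :
    ∀ (a b : ZMod n) (x y : L), x ∈ gam (der K) k a → y ∈ K b → ⁅x, y⁆ ∈ gam (der K) k (a + b) := by
  have h0 : ∀ (a b : ZMod n) (x y : L), x ∈ der K a → y ∈ K b → ⁅x, y⁆ ∈ der K (a + b) :=
    fun a b x y hx hy => mem_brk (hK.der_le a hx) hy
  induction k with
  | zero => exact h0
  | succ k ih =>
    intro a b x y hx hy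
    have hx' : x ∈ brk (gam (der K) k) (der K) a := hx
    clear hx
    show ⁅x, y⁆ ∈ brk (gam (der K) k) (der K) (a + b)
    induction hx' using AddSubgroup.closure_induction with
    | mem w hw =>
      obtain ⟨a1, a2, u, m, ha, hu, hm, rfl⟩ := hw
      have e : ⁅⁅u, m⁆, y⁆ = ⁅⁅u, y⁆, m⁆ + ⁅u, ⁅m, y⁆⁆ := by
        rw [leibniz_lie u m y, ← lie_skew m ⁅u, y⁆]
        abel
      rw [e]
      apply AddSubgroup.add_mem
      · exact mem_brk' (ih a1 b u y hu hy) hm (by rw [← ha]; abel)
      · exact mem_brk' hu (h0 a2 b m y hm hy) (by rw [← ha]; abel)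
    | zero => rw [zero_lie]; exact AddSubgroup.zero_mem _
    | add u v _ _ hu hv => rw [add_lie]; exact AddSubgroup.add_mem _ hu hv
    | neg u _ hu => rw [neg_lie]; exact AddSubgroup.neg_mem _ hu

theorem kk {L : Type*} [LieRing L] {p : ℕ} [Fact p.Prime] (K : ZMod p → AddSubgroup L)
    (hK : IsGr K) (s : ℕ) (hs : ∀ i, (der^[s] K) i = ⊥) : ∀ i, gam K (xi p s) i = ⊥ := by
  induction s generalizing K with
  | zero => exact hs
  | succ s ih =>
    have hM : IsGr (der K) := hK.der
    have hsM : ∀ i, (der^[s] (der K)) i = ⊥ := by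
      intro i
      have := hs i
      rwa [Function.iterate_succ_apply] at this
    have ihM := ih (der K) hM hsM
    have claim : ∀ (k : ℕ) (i : ZMod p), gam K (1 + (p - 1) * k) i ≤ ⨆ j, gam (der K) k j := by
      intro k
      induction k with
      | zero =>
        intro i
        rw [mul_zero, add_zero]
        exact le_iSup (fun j => gam (der K) 0 j) i
      | succ k ihk =>
        intro i
        have e : 1 + (p - 1) * (k + 1) = (1 + (p - 1) * k) + (p - 1) := by ring
        rw [e]
        refine (gam_add_le K _ _ i).trans ?_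
        rw [AddSubgroup.closure_le]
        rintro z ⟨b, x, l, hx, hl, hlK, rfl⟩
        have hx' := ihk b hx
        show lnb x (l.map Prod.snd) ∈ ⨆ j, gam (der K) (k + 1) j
        have hideal : ∀ (a : ZMod p) (x y : L), x ∈ (⨆ j, gam (der K) (k + 1) j) → y ∈ K a →
            ⁅x, y⁆ ∈ ⨆ j, gam (der K) (k + 1) j := by
          intro a x y hx hy
          refine AddSubgroup.iSup_induction (fun j => gam (der K) (k + 1) j)
            (C := fun x => ⁅x, y⁆ ∈ ⨆ j, gam (der K) (k + 1) j) hx ?_ ?_ ?_
          · intro j x hx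
            exact AddSubgroup.mem_iSup_of_mem (j + a) (gam_der_ideal K hK (k + 1) j a x y hx hy)
          · show ⁅(0 : L), y⁆ ∈ _
            rw [zero_lie]; exact AddSubgroup.zero_mem _
          · intro u v hu hv
            show ⁅u + v, y⁆ ∈ _
            rw [add_lie]; exact AddSubgroup.add_mem _ hu hv
        refine AddSubgroup.iSup_induction (fun j => gam (der K) k j)
          (C := fun x => lnb x (l.map Prod.snd) ∈ ⨆ j, gam (der K) (k + 1) j) hx' ?_ ?_ ?_
        · intro j x hx
          refine kk_step K hK (gam (der K) k) (⨆ j, gam (der K) (k + 1) j)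
            (fun i => (hM.gam_le k i).trans (hK.der_le i)) (gam_der_ideal K hK k) ?_ hideal j x hx
            l hl hlK
          intro a b c x y z hx hy hz
          exact AddSubgroup.mem_iSup_of_mem (a + (b + c))
            (mem_brk (A := gam (der K) k) (B := der K) hx (mem_brk hy hz))
        · show lnb (0 : L) _ ∈ _
          rw [lnb_zero]; exact AddSubgroup.zero_mem _
        · intro u v hu hv
          show lnb (u + v) _ ∈ _
          rw [lnb_add]; exact AddSubgroup.add_mem _ hu hv
    intro i
    rw [xi_succ, eq_bot_iff]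
    refine (claim (xi p s) i).trans ?_
    simp [ihM]

end Cfsg.Agent.Lib.Helper71.HKK
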