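import Cfsg.Agent.Lib.Lead.HKK.Basic

/-!
HKK ladder, rung P3: `gam_two_of_three`.
-/

set_option autoImplicit false

namespace Cfsg.Agent.Lib.Helper71.HKK

open Cfsg.Agent.Lib.Lead.HKK

theorem gam_two_of_three {L : Type*} [LieRing L] (K : ZMod 3 → AddSubgroup L) (hK : IsGr K) :
    ∀ i, gam K 2 i = ⊥ := by
  have hcases : ∀ a b c : ZMod 3, a = 0 ∨ b = 0 ∨ c = 0 ∨ a + b = 0 ∨ a + b + c = 0 ∨
      (b + c = 0 ∧ a + c = 0) := by decide
  have key : ∀ (a b c : ZMod 3) (x y z : L), x ∈ K a → y ∈ K b → z ∈ K c → ⁅⁅x, y⁆, z⁆ = 0 := by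
    intro a b c x y z hx hy hz
    rcases hcases a b c with h | h | h | h | h | ⟨h, h'⟩
    · have e : x = 0 := hK.eq_zero (h ▸ hx)
      rw [e, zero_lie, zero_lie]
    · have e : y = 0 := hK.eq_zero (h ▸ hy)
      rw [e, lie_zero, zero_lie]
    · have e : z = 0 := hK.eq_zero (h ▸ hz)
      rw [e, lie_zero]
    · have e : ⁅x, y⁆ = 0 := hK.eq_zero (h ▸ hK.lie a b x y hx hy)
      rw [e, zero_lie]
    · exact hK.eq_zero (h ▸ hK.lie (a + b) c _ z (hK.lie a b x y hx hy) hz)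
    · have e : ⁅y, z⁆ = 0 := hK.eq_zero (h ▸ hK.lie b c y z hy hz)
      have e' : ⁅x, z⁆ = 0 := hK.eq_zero (h' ▸ hK.lie a c x z hx hz)
      rw [lie_lie, e, e', lie_zero, lie_zero, sub_zero]
  intro i
  rw [eq_bot_iff]
  show brk (brk K K) K i ≤ ⊥
  apply brk_le (C := fun _ => ⊥)
  intro a c w z hw hz
  rw [AddSubgroup.mem_bot]
  induction hw using AddSubgroup.closure_induction with
  | mem w hw =>
    obtain ⟨a1, a2, x, y, -, hx, hy, rfl⟩ := hw
    exact key a1 a2 c x y z hx hy hz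
  | zero => rw [zero_lie]
  | add u v _ _ hu hv => rw [add_lie, hu, hv, add_zero]
  | neg u _ hu => rw [neg_lie, hu, neg_zero]

end Cfsg.Agent.Lib.Helper71.HKK
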