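import Mathlib

/-!
Averaging operators for elements of order `p` in a linear representation, and the decomposition of
a module under an elementary abelian group of order `p ^ 2` with a fixed-point-free element.
-/

set_option autoImplicit false

namespace Cfsg.Agent.Lib.Helper71.PSum

variable {q : ℕ} {V : Type*} [AddCommGroup V] [Module (ZMod q) V] {G : Type*} [Group G]
  (ρ : G →* (V ≃ₗ[ZMod q] V))

/-- the fixed space of `x` -/
def Fx (x : G) : Submodule (ZMod q) V := LinearMap.ker ((ρ x : V →ₗ[ZMod q] V) - LinearMap.id)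

theorem mem_Fx {x : G} {v : V} : v ∈ Fx ρ x ↔ ρ x v = v := by
  simp [Fx, sub_eq_zero]

variable (p : ℕ) [hp : Fact p.Prime]

/-- the sum of the powers of `x` -/
noncomputable def SL (x : G) : V →ₗ[ZMod q] V :=
  ∑ j : ZMod p, (ρ (x ^ j.val) : V →ₗ[ZMod q] V)

theorem SL_apply (x : G) (v : V) : SL ρ p x v = ∑ j : ZMod p, ρ (x ^ j.val) v := by
  simp [SL, LinearMap.sum_apply]

variable {p}

theorem pow_val_add {x : G} (hx : x ^ p = 1) (a b : ZMod p) :
    x ^ (a + b).val = x ^ a.val * x ^ b.val := by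
  rw [ZMod.val_add, ← pow_eq_pow_mod _ hx, pow_add]

theorem pow_val_mul {x : G} (hx : x ^ p = 1) (a b : ZMod p) :
    x ^ (a * b).val = (x ^ a.val) ^ b.val := by
  rw [ZMod.val_mul, ← pow_eq_pow_mod _ hx, pow_mul]

theorem map_SL {x : G} (hx : x ^ p = 1) (v : V) : ρ x (SL ρ p x v) = SL ρ p x v := by
  rw [SL_apply, map_sum]
  have h1 : ∀ j : ZMod p, ρ x (ρ (x ^ j.val) v) = ρ (x ^ (j + 1).val) v := by
    intro j
    rw [pow_val_add hx, ZMod.val_one, pow_one, ← pow_succ, pow_succ', map_mul]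
    rfl
  simp_rw [h1]
  exact Equiv.sum_comp (Equiv.addRight (1 : ZMod p)) (fun j => ρ (x ^ j.val) v)

theorem SL_mem {x : G} (hx : x ^ p = 1) (v : V) : SL ρ p x v ∈ Fx ρ x :=
  (mem_Fx ρ).mpr (map_SL ρ hx v)

theorem map_pow_of_mem {x : G} {w : V} (hw : w ∈ Fx ρ x) (n : ℕ) : ρ (x ^ n) w = w := by
  rw [mem_Fx] at hw
  induction n with
  | zero => simp
  | succ n ih =>
    rw [pow_succ, map_mul]
    show ρ (x ^ n) (ρ x w) = w
    rw [hw, ih]

theorem SL_of_mem {x : G} {w : V} (hw : w ∈ Fx ρ x) : SL ρ p x w = (p : ZMod q) • w := by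
  rw [SL_apply]
  simp_rw [map_pow_of_mem ρ hw]
  rw [Finset.sum_const, Finset.card_univ, ZMod.card, Nat.cast_smul_eq_nsmul]

theorem SL_mul_central {x z : G} (hxz : Commute x z) (hz : z ^ p = 1)
    (hN : ∀ v : V, SL ρ p z v = 0) {c : ZMod p} (hc : c ≠ 0) {w : V} (hw : w ∈ Fx ρ x) :
    SL ρ p (x * z ^ c.val) w = 0 := by
  rw [SL_apply]
  have h1 : ∀ j : ZMod p, ρ ((x * z ^ c.val) ^ j.val) w = ρ (z ^ (c * j).val) w := by
    intro j
    rw [(hxz.pow_right _).mul_pow, pow_val_mul hz, ((hxz.pow_right _).pow_pow _ _).eq, map_mul]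
    show ρ ((z ^ c.val) ^ j.val) (ρ (x ^ j.val) w) = _
    rw [map_pow_of_mem ρ hw]
  simp_rw [h1]
  have h2 : ∑ j : ZMod p, ρ (z ^ (c * j).val) w = ∑ j : ZMod p, ρ (z ^ j.val) w :=
    Equiv.sum_comp (Equiv.mulLeft₀ c hc) (fun j => ρ (z ^ j.val) w)
  rw [h2, ← SL_apply, hN]

theorem sum_SL {e z : G} (hez : Commute e z) (hz : z ^ p = 1)
    (hN : ∀ v : V, SL ρ p z v = 0) (v : V) :
    ∑ k : ZMod p, SL ρ p (e * z ^ k.val) v = (p : ZMod q) • v := by
  simp_rw [SL_apply]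
  rw [Finset.sum_comm]
  have h1 : ∀ j k : ZMod p, ρ ((e * z ^ k.val) ^ j.val) v =
      ρ (e ^ j.val) (ρ (z ^ (k * j).val) v) := by
    intro j k
    rw [(hez.pow_right _).mul_pow, pow_val_mul hz, map_mul]
    rfl
  simp_rw [h1, ← map_sum]
  rw [Finset.sum_eq_single (0 : ZMod p)]
  · simp only [mul_zero, ZMod.val_zero, pow_zero, map_one]
    show ∑ _k : ZMod p, v = _
    rw [Finset.sum_const, Finset.card_univ, ZMod.card, Nat.cast_smul_eq_nsmul]
  · intro j _ hj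
    have h2 : ∑ k : ZMod p, ρ (z ^ (k * j).val) v = ∑ k : ZMod p, ρ (z ^ k.val) v :=
      Equiv.sum_comp (Equiv.mulRight₀ j hj) (fun k => ρ (z ^ k.val) v)
    rw [h2, ← SL_apply, hN, map_zero]
  · intro h
    exact absurd (Finset.mem_univ _) h

/-- the decomposition -/
theorem iSup_Fx {e z : G} (hez : Commute e z) (hz : z ^ p = 1) (he : e ^ p = 1)
    (hN : ∀ v : V, SL ρ p z v = 0) (hpq : (p : ZMod q) ≠ 0) [Fact q.Prime] :
    ⨆ k : ZMod p, Fx ρ (e * z ^ k.val) = ⊤ := by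
  rw [eq_top_iff]
  intro v _
  have h1 := sum_SL ρ hez hz hN v
  have h2 : v = (p : ZMod q)⁻¹ • ∑ k : ZMod p, SL ρ p (e * z ^ k.val) v := by
    rw [h1, smul_smul, inv_mul_cancel₀ hpq, one_smul]
  rw [h2]
  apply Submodule.smul_mem
  apply Submodule.sum_mem
  intro k _
  apply Submodule.mem_iSup_of_mem k
  apply SL_mem
  rw [(hez.pow_right _).mul_pow, he, ← pow_mul, mul_comm, pow_mul, hz, one_pow, one_mul]

theorem iSupIndep_Fx {e z : G} (hez : Commute e z) (hz : z ^ p = 1)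
    (hN : ∀ v : V, SL ρ p z v = 0) (hpq : (p : ZMod q) ≠ 0) [Fact q.Prime] :
    iSupIndep (fun k : ZMod p => Fx ρ (e * z ^ k.val)) := by
  intro k
  rw [Submodule.disjoint_def]
  intro x hx hx'
  have h1 : (⨆ j, ⨆ (_ : j ≠ k), Fx ρ (e * z ^ j.val)) ≤
      LinearMap.ker (SL ρ p (e * z ^ k.val)) := by
    refine iSup_le fun j => iSup_le fun hj => ?_
    intro w hw
    rw [LinearMap.mem_ker]
    have h2 : e * z ^ k.val = (e * z ^ j.val) * z ^ (k - j).val := by
      rw [mul_assoc, ← pow_val_add hz, add_sub_cancel]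
    rw [h2]
    exact SL_mul_central ρ ((hez.mul_left ((Commute.refl z).pow_left _))) hz hN
      (sub_ne_zero.mpr (Ne.symm hj)) hw
  have h3 := LinearMap.mem_ker.mp (h1 hx')
  rw [SL_of_mem ρ hx] at h3
  exact (smul_eq_zero.mp h3).resolve_left hpq

end Cfsg.Agent.Lib.Helper71.PSum
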